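import Cfsg.Agent.GHC.J1

/-! Extensions of `2^(1+4)` by `S₅`: facts inside the group. -/

set_option autoImplicit false
set_option maxRecDepth 100000
set_option linter.unusedSimpArgs false

namespace Cfsg.Lib.GHC

open Subgroup Cfsg.Lib.Trans Cfsg.Lib.Gold Cfsg.Lib.Solv Cfsg.Lib.Local Cfsg.Lib.Spor
  Cfsg.Lib.Spor.HJ Cfsg.Lib.Spor.WF Cfsg.Lib.Spor.Bulk Cfsg.Lib.Spor.PK

theorem s5_four : ∀ σ : Equiv.Perm (Fin 5), σ * σ ≠ 1 → σ ^ 8 = 1 → σ ^ 4 = 1 ∧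
    (∀ i k, σ i = i → σ k = k → i = k) ∧
    ∀ τ : Equiv.Perm (Fin 5), τ * τ = 1 → σ * τ = τ * σ → τ = 1 ∨ τ = σ * σ := by
  decide +kernel

theorem s5_cent : Nat.card (C1 (Equiv.swap 0 1 : Equiv.Perm (Fin 5))) = 12 := by
  rw [Equiv.Perm.nat_card_centralizer, Equiv.Perm.isSwap_iff_cycleType.1 ⟨0, 1, by decide, rfl⟩]
  simp [Nat.factorial]

theorem exists_vr {Y : Type*} [Group Y] {z C D E s w : Y} (hz : ∀ g, g * z = z * g)
    (zz : z * z = 1) (CC : C * C = 1) (DD : D * D = 1) (EE : E * E = 1)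
    (CD : D * C = z * (C * D)) (CE : E * C = z * (C * E)) (DE : E * D = z * (D * E))
    (sC : s * C = z * (C * s)) (sD : s * D = z * (D * s)) (sE : s * E = z * (E * s))
    (wC : w * C = z * (C * w)) (wD : w * D = E * w) (wE : w * E = D * w)
    (ss : s * s = 1 ∨ s * s = z) (ww : w * w = 1 ∨ w * w = z)
    (sw : s * w = w * s ∨ s * w = z * (w * s)) :
    ∃ v r, (v = s ∨ v = D * E * s) ∧ v * v = 1 ∧ r * v = v * r ∧ r ^ 4 = z := by
  have a : ∀ {x y u : Y}, x * y = u → ∀ t, x * (y * t) = u * t := fun e t => by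
    rw [← mul_assoc, e]
  have p4 : ∀ r : Y, r ^ 4 = r * r * (r * r) := fun r => by
    rw [show 4 = 2 + 2 from rfl, pow_add, sq]
  rcases ss with ss | ss <;> rcases sw with sw | sw
  on_goal 1 => refine ⟨s, w * C * D, Or.inl rfl, ss, ?_⟩
  on_goal 2 => refine ⟨s, w * D, Or.inl rfl, ss, ?_⟩
  on_goal 3 => refine ⟨_, w * C * D, Or.inr rfl, ?_⟩
  on_goal 4 => refine ⟨_, w * D, Or.inr rfl, ?_⟩
  all_goals rcases ww with ww | ww
  all_goals simp only [p4, mul_assoc, hz C, hz D, hz E, hz s, hz w, a (hz C), a (hz D), a (hz E),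
    a (hz s), a (hz w), zz, a zz, CC, a CC, DD, a DD, EE, a EE, CD, a CD, CE, a CE, DE, a DE, sC,
    a sC, sD, a sD, sE, a sE, wC, a wC, wD, a wD, wE, a wE, ss, a ss, ww, a ww, sw, a sw, one_mul,
    mul_one, and_self]

variable {X : Type*} [Group X] {T : Tup X}

theorem q_rel (h : Emb MQ.m T.gQ) : T.D * T.C = T.z * T.C * T.D ∧ T.E * T.C = T.z * T.C * T.E ∧
    T.E * T.D = T.z * T.D * T.E := by
  have := PM.holds MQ_ok MQ_subs h (p := (.and (.eq [3,4] [4,3,6]) (.and (.eq [3,5] [5,3,6])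
    (.eq [4,5] [5,4,6])))) (by decide +kernel)
  simp only [Fm.sem, wv_cons, wv_nil, one_mul, upd_apply, Nat.reduceEqDiff, ↓reduceIte, Tup.gQ_1,
    Tup.gQ_2, Tup.gQ_3, Tup.gQ_4, Tup.gQ_5, Tup.gQ_6] at this
  exact this

theorem q_sgn_s (h : Emb MQ.m T.gQ) :
    ∀ a ∈ T.sQ, (a = T.B ∨ a = T.B * T.z) → (∀ b ∈ T.sQ, (b = T.A ∨ b = T.A * T.z) →
    (∀ c ∈ T.sQ, (c = T.C ∨ c = T.C * T.z) → (∀ d ∈ T.sQ, (d = T.D ∨ d = T.D * T.z) →
    (∀ e ∈ T.sQ, (e = T.E ∨ e = T.E * T.z) → (a * b * c * d * e = 1 → (∃ q ∈ T.sQ,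
    q * a = T.B * q ∧ q * b = T.A * q ∧ q * c = T.z * T.C * q ∧ q * d = T.z * T.D * q ∧
    q * e = T.z * T.E * q)))))) := by
  have := PM.holds MQ_ok MQ_subs h (p := (.all 0 21 (.imp (.or (.eq [21] [2]) (.eq [21] [6,2]))
    (.all 0 22 (.imp (.or (.eq [22] [1]) (.eq [22] [6,1])) (.all 0 23 (.imp (.or (.eq [23] [3])
    (.eq [23] [6,3])) (.all 0 24 (.imp (.or (.eq [24] [4]) (.eq [24] [6,4])) (.all 0 25 (.imp
    (.or (.eq [25] [5]) (.eq [25] [6,5])) (.imp (.eq [25,24,23,22,21] []) (.ex 0 26 (.and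
    (.eq [21,26] [26,2]) (.and (.eq [22,26] [26,1]) (.and (.eq [23,26] [26,3,6]) (.and
    (.eq [24,26] [26,4,6]) (.eq [25,26] [26,5,6])))))))))))))))))) (by decide +kernel)
  simp only [Fm.sem, wv_cons, wv_nil, one_mul, upd_apply, Nat.reduceEqDiff, ↓reduceIte, Tup.gQ_1,
    Tup.gQ_2, Tup.gQ_3, Tup.gQ_4, Tup.gQ_5, Tup.gQ_6] at this
  exact this

theorem q_sgn_w (h : Emb MQ.m T.gQ) :
    ∀ a ∈ T.sQ, (a = T.A ∨ a = T.A * T.z) → (∀ b ∈ T.sQ, (b = T.B ∨ b = T.B * T.z) →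
    (∀ c ∈ T.sQ, (c = T.C ∨ c = T.C * T.z) → (∀ d ∈ T.sQ, (d = T.E ∨ d = T.E * T.z) →
    (∀ e ∈ T.sQ, (e = T.D ∨ e = T.D * T.z) → (a * b * c * d * e = 1 → (∃ q ∈ T.sQ,
    q * a = T.A * q ∧ q * b = T.B * q ∧ q * c = T.z * T.C * q ∧ q * d = T.E * q ∧
    q * e = T.D * q)))))) := by
  have := PM.holds MQ_ok MQ_subs h (p := (.all 0 21 (.imp (.or (.eq [21] [1]) (.eq [21] [6,1]))
    (.all 0 22 (.imp (.or (.eq [22] [2]) (.eq [22] [6,2])) (.all 0 23 (.imp (.or (.eq [23] [3])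
    (.eq [23] [6,3])) (.all 0 24 (.imp (.or (.eq [24] [5]) (.eq [24] [6,5])) (.all 0 25 (.imp
    (.or (.eq [25] [4]) (.eq [25] [6,4])) (.imp (.eq [25,24,23,22,21] []) (.ex 0 26 (.and
    (.eq [21,26] [26,1]) (.and (.eq [22,26] [26,2]) (.and (.eq [23,26] [26,3,6]) (.and
    (.eq [24,26] [26,5]) (.eq [25,26] [26,4])))))))))))))))))) (by decide +kernel)
  simp only [Fm.sem, wv_cons, wv_nil, one_mul, upd_apply, Nat.reduceEqDiff, ↓reduceIte, Tup.gQ_1,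
    Tup.gQ_2, Tup.gQ_3, Tup.gQ_4, Tup.gQ_5, Tup.gQ_6] at this
  exact this

/-- The configuration: `T.z` is central and `π` is the action on the five pairs. -/
structure S5 (T : Tup X) (π : X →* Equiv.Perm (Fin 5)) : Prop where
  lx : PreLX T.sQ T.z
  sat : Sat T.gQ 7 iM rQ
  cen : ∀ x : X, x * T.z = T.z * x
  act : ∀ c i, T.R c i (π c i)
  ker : π.ker = T.sQ
  un : ∀ c i j, T.R c i j → π c i = j

namespace S5

variable {π : X →* Equiv.Perm (Fin 5)} (h : S5 T π)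
include h

theorem mem {x : X} : x ∈ T.sQ ↔ π x = 1 := by rw [← h.ker, MonoidHom.mem_ker]

theorem exists_sgn (c : X) {τ : Fin 5 → Fin 5} (e : ∀ i, π c i = τ i) {b0 b1 b2 b3 b4 : X}
    (H : ∀ a ∈ T.sQ, (a = T.a (τ 0) ∨ a = T.a (τ 0) * T.z) → ∀ b ∈ T.sQ,
      (b = T.a (τ 1) ∨ b = T.a (τ 1) * T.z) → ∀ c ∈ T.sQ, (c = T.a (τ 2) ∨ c = T.a (τ 2) * T.z) →
      ∀ d ∈ T.sQ, (d = T.a (τ 3) ∨ d = T.a (τ 3) * T.z) → ∀ e ∈ T.sQ,
      (e = T.a (τ 4) ∨ e = T.a (τ 4) * T.z) → a * b * c * d * e = 1 → ∃ q ∈ T.sQ,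
      q * a = b0 * q ∧ q * b = b1 * q ∧ q * c = b2 * q ∧ q * d = b3 * q ∧ q * e = b4 * q) :
    ∃ s, π s = π c ∧ s * T.A = b0 * s ∧ s * T.B = b1 * s ∧ s * T.C = b2 * s ∧ s * T.D = b3 * s ∧
      s * T.E = b4 * s := by
  have hR := h.act c
  simp only [e] at hR
  have m := fun i => conj_mem_of_mem_normalizer
    (h.lx.norm (mem_centralizer_singleton_iff.2 (h.cen c))) (a_mem (T := T) i)
  obtain ⟨q, hq, e⟩ := H _ (m 0) (hR 0) _ (m 1) (hR 1) _ (m 2) (hR 2) _ (m 3) (hR 3) _ (m 4) (hR 4)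
    (by
      have := h.sat.rel [5, 4, 3, 2, 1] (by decide)
      simp only [wv_cons, wv_nil, one_mul] at this
      rw [conj_mul, conj_mul, conj_mul, conj_mul]
      exact (congrArg (fun x => c * x * c⁻¹) this).trans (by simp))
  have k : ∀ {x b : X}, q * (c * x * c⁻¹) = b * q → q * c * x = b * (q * c) := fun a => by
    rw [← mul_assoc, ← a]; group
  exact ⟨q * c, by rw [map_mul, h.mem.1 hq, one_mul], k e.1, k e.2.1, k e.2.2.1, k e.2.2.2.1,
    k e.2.2.2.2⟩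

theorem cases_of {c d : X} (e : ∀ i, d⁻¹ * c * T.a i = T.a i * (d⁻¹ * c)) :
    c = d ∨ c = T.z * d := by
  rcases h.lx.mem_iff.1 (Tup.Act.mem h.lx (σ := id) ⟨h.cen _, e⟩ fun _ => rfl) with a | a
  · exact Or.inl (inv_mul_eq_one.1 a).symm
  · exact Or.inr (by rw [← h.cen, ← a, mul_inv_cancel_left])

theorem exists_v (hs : Function.Surjective π) :
    ∃ v r : X, π v = Equiv.swap 0 1 ∧ v * v = 1 ∧ r * v = v * r ∧ r ^ 4 = T.z := by
  have he := embQ h.sat h.lx.ne_one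
  obtain ⟨s0, hs0⟩ := hs (Equiv.swap 0 1)
  obtain ⟨w0, hw0⟩ := hs (Equiv.swap 3 4)
  obtain ⟨s, e, s0, s1, s2, s3, s4⟩ := h.exists_sgn s0 (τ := ![1, 0, 2, 3, 4])
    (by rw [hs0]; decide) (q_sgn_s he)
  obtain ⟨w, -, w0, w1, w2, w3, w4⟩ := h.exists_sgn w0 (τ := ![0, 1, 2, 4, 3])
    (by rw [hw0]; decide) (q_sgn_w he)
  obtain ⟨r1, r2, r3⟩ := q_rel he
  simp only [mul_assoc] at s2 s3 s4 w2 r1 r2 r3
  have a : ∀ {x y u : X}, x * y = u → ∀ t, x * (y * t) = u * t := fun e t => by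
    rw [← mul_assoc, e]
  have zz := h.lx.mul_self
  have k : ∀ {c d : X}, (∀ i, ∃ b, c * T.a i = b * c ∧ d * T.a i = b * d) → c = d ∨ c = T.z * d :=
    fun {c d} H => h.cases_of fun i => by
      obtain ⟨b, b1, b2⟩ := H i
      rw [mul_assoc, b1, ← mul_assoc, ← mul_assoc, mul_left_inj, inv_mul_eq_iff_eq_mul,
        ← mul_assoc, b2, mul_inv_cancel_right]
  have ss := k (c := s * s) (d := 1) fun i => ⟨T.a i, by
    fin_cases i <;> simp [Tup.a, mul_assoc, s0, s1, s2, s3, s4, a s0, a s1, a s2, a s3, a s4,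
      a (h.cen s), a zz]⟩
  have ww := k (c := w * w) (d := 1) fun i => ⟨T.a i, by
    fin_cases i <;> simp [Tup.a, mul_assoc, w0, w1, w2, w3, w4, a w0, a w1, a w2, a w3, a w4,
      a (h.cen w), a zz]⟩
  have sw := k (c := s * w) (d := w * s) fun i => ⟨![T.B, T.A, T.C, T.z * T.E, T.z * T.D] i, by
    fin_cases i <;> simp [Tup.a, mul_assoc, w0, w1, w2, w3, w4, a w0, a w1, a w2, a w3, a w4,
      a (h.cen w), a zz, s0, s1, s2, s3, s4, a s0, a s1, a s2, a s3, a s4, a (h.cen s)]⟩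
  rw [mul_one] at ss ww
  obtain ⟨v, r, hv, H⟩ := exists_vr h.cen zz (a_sq h.sat 2) (a_sq h.sat 3) (a_sq h.sat 4) r1 r2 r3
    s2 s3 s4 w2 w3 w4 ss ww sw
  refine ⟨v, r, ?_, H⟩
  rcases hv with rfl | rfl
  · rw [e, hs0]
  · rw [map_mul, h.mem.1 (mul_mem (a_mem 3) (a_mem 4)), one_mul, e, hs0]

theorem card_le [Finite X] {v : X} (hv : π v = Equiv.swap 0 1) {R : Subgroup X}
    (hR : IsPGroup 2 R) (hRv : R ≤ C1 v) : Nat.card R ≤ 64 := by
  have : Fact (Nat.Prime 2) := ⟨Nat.prime_two⟩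
  have hQ := card_sQ (embQ h.sat h.lx.ne_one)
  have a : Nat.card (π.ker ⊓ R : Subgroup X) * π.ker.relIndex R = Nat.card R := by
    rw [← inf_relIndex_right, card_mul_relIndex_of_le inf_le_right]
  have b : Nat.card (π.ker ⊓ R : Subgroup X) ≤ 16 := by
    have b1 := card_dvd_of_le (inf_le_left : T.sQ ⊓ R ≤ _)
    have b2 : Nat.card (T.sQ ⊓ R : Subgroup X) ≠ 32 := fun e => by
      have := eq_of_le_of_card_ge (inf_le_left : T.sQ ⊓ R ≤ _) (by rw [e, hQ])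
      have k := h.mem.1 (h.lx.zpowers_le (h.lx.cent (x := v) fun q hq =>
        mem_centralizer_singleton_iff.1 (hRv (this.ge hq).2)))
      rw [hv] at k
      exact absurd k (by decide)
    rw [h.ker]
    rw [hQ] at b1
    have := Nat.le_of_dvd (by norm_num) b1
    generalize Nat.card (T.sQ ⊓ R : Subgroup X) = n at *
    by_contra k
    push Not at k
    interval_cases n <;> simp_all
  have c : Nat.card (R.map π) ≤ 4 := by
    have c1 := card_dvd_of_le (show R.map π ≤ C1 (Equiv.swap 0 1) by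
      rintro _ ⟨x, hx, rfl⟩
      rw [mem_centralizer_singleton_iff, ← hv, ← map_mul,
        mem_centralizer_singleton_iff.1 (hRv hx), map_mul])
    obtain ⟨n, hn⟩ := IsPGroup.iff_card.1 (hR.map π)
    rw [s5_cent, hn] at c1
    rw [hn]
    by_contra k
    have : 3 ≤ n := by
      by_contra k'
      exact k (Nat.pow_le_pow_right (by norm_num) (by omega : n ≤ 2))
    exact absurd ((pow_dvd_pow 2 this).trans c1) (by norm_num)
  rw [← a, relIndex_ker]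
  exact Nat.mul_le_mul b c

theorem exists_big [Finite X] {P : Subgroup X} (hP : IsPGroup 2 P) {r v : X} (hr : r ∈ P)
    (vv : v * v = 1) (rv : r * v = v * r) (r8 : r ^ 8 = 1) (r1 : r ^ 4 ≠ 1) (rz : r ^ 4 ≠ T.z) :
    ∃ R : Subgroup P, R.index ∣ 2 ∧ ∀ x ∈ R, (x : X) * r ^ 4 = r ^ 4 * x ∧ (x : X) * v = v * x := by
  have : Fact (Nat.Prime 2) := ⟨Nat.prime_two⟩
  have p4 : r ^ 4 = r * r * (r * r) := by rw [show 4 = 2 + 2 from rfl, pow_add, sq]
  have nz : r ^ 4 ∉ zpowers T.z := fun e => (h.lx.mem_iff.1 e).elim r1 rz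
  obtain ⟨a1, a2, a3⟩ := s5_four (π r) (fun e => nz (p4 ▸ h.lx.sq_mem _ (h.mem.2 (by
    rw [map_mul, e])))) (by rw [← map_pow, r8, map_one])
  obtain ⟨i, hi⟩ := (hP.map π).nonempty_fixed_point_of_prime_not_dvd_card (Fin 5) (by simp)
  have fx : ∀ p ∈ P, π p i = i := fun p hp => hi ⟨_, p, hp, rfl⟩
  have key : ∀ y ∈ T.sQ, y * y = 1 → r * y = y * r → ∀ x, x * T.a i = T.a i * x → x * y = y * x :=
    fun y hy yy ry x hx => by
      have k1 : ∀ k, y = T.a k → x * y = y * x := fun k e => by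
        rw [e, ← a2 i k (fx r hr) (h.un r k k (Or.inl (by rw [← e, ry, mul_inv_cancel_right]))), hx]
      have k2 : ∀ k, y = T.a k * T.z → x * y = y * x := fun k e => by
        have : r * T.a k = T.a k * r := mul_right_cancel (b := T.z) (by
          rw [mul_assoc, ← e, ry, e, mul_assoc, mul_assoc, h.cen r])
        rw [e, ← a2 i k (fx r hr) (h.un r k k (Or.inl (by rw [this, mul_inv_cancel_right]))),
          ← mul_assoc, hx, mul_assoc, h.cen x, mul_assoc]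
      rcases q_inv (embQ h.sat h.lx.ne_one) y hy yy with e | e | e | e | e | e | e | e | e | e | e | e
      exacts [by simp [e], e ▸ h.cen x, k1 0 e, k2 0 e, k1 1 e, k2 1 e, k1 2 e, k2 2 e, k1 3 e,
        k2 3 e, k1 4 e, k2 4 e]
  have hv : v ∈ T.sQ := by
    rcases a3 (π v) (by rw [← map_mul, vv, map_one]) (by rw [← map_mul, rv, map_mul]) with e | e
    · exact h.mem.2 e
    · refine absurd ?_ nz
      have := inv_mem (h.lx.sq_mem _ (h.mem.2 (show π ((r * r)⁻¹ * v) = 1 by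
        rw [map_mul, map_inv, map_mul, e, inv_mul_cancel])))
      have c : Commute (r * r)⁻¹ v := (Commute.mul_left rv rv).inv_left
      rwa [mul_assoc, ← mul_assoc v, ← c.eq, mul_assoc _ v v, vv, mul_one, ← mul_inv_rev, inv_inv,
        ← p4] at this
  have hI := idxLeTwo_centralizer (T := P) (e := T.a i) h.lx.mul_self (fun t _ => h.cen t)
    fun t ht => by
      have := h.act t i
      rw [fx t ht] at this
      exact this.imp_right fun e => e.trans (h.cen _)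
  refine ⟨(C1 (T.a i)).subgroupOf P, index_dvd_two_iff.2 ?_, fun x hx => ⟨key _ (h.mem.2 (by
    rw [map_pow, a1])) (by rw [← pow_add, r8]) ((Commute.refl r).pow_right 4) x
    (mem_centralizer_singleton_iff.1 hx), key v hv vv rv x (mem_centralizer_singleton_iff.1 hx)⟩⟩
  by_cases k : ∃ a : P, a ∉ (C1 (T.a i)).subgroupOf P
  · obtain ⟨a, ha⟩ := k
    exact ⟨a, fun b => or_iff_not_imp_right.2 fun hb => hI b b.2 a a.2 hb ha⟩
  · push Not at k
    exact ⟨1, fun b => Or.inr (k b)⟩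

end S5

end Cfsg.Lib.GHC
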